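import Mathlib
import Cfsg.Agent.Lib.H9.HN.HNQ

/-!
# Lifting the Harada-Norton relations through a central extension
-/

set_option autoImplicit false
set_option linter.all false

namespace H9.HN.Mult

open H9.HN.Up

section lift

variable {Γ G : Type} [Group Γ] [Group G] (σ : Γ →* G) (K : Subgroup Γ)

/-- the set-up: central kernel, `K` meets the kernel trivially and is normalised by `z` -/
structure Env (x y z t : Γ) : Prop where
  hc : ∀ u, σ u = 1 → ∀ g, u * g = g * u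
  hK : ∀ k ∈ K, σ k = 1 → k = 1
  hx : x ∈ K
  hy : y ∈ K
  hz : ∀ k ∈ K, z⁻¹ * k * z ∈ K
  rel : Rels (σ x) (σ y) (σ z) (σ t)

variable {σ K} {x y z t : Γ}

/-- changing `z` and `t` by central elements -/
theorem Env.change (h : Env σ K x y z t) {c d : Γ} (hc : σ c = 1) (hd : σ d = 1) : Env σ K x y (z * c) (t * d) := by
  refine ⟨h.hc, h.hK, h.hx, h.hy, ?_, ?_⟩
  · intro k hk
    have e : (z * c)⁻¹ * k * (z * c) = z⁻¹ * k * z := by
      have h1 := h.hc c hc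
      calc (z * c)⁻¹ * k * (z * c) = c⁻¹ * (z⁻¹ * k * z) * c := by simp only [mul_inv_rev, mul_assoc]
        _ = c⁻¹ * (c * (z⁻¹ * k * z)) := by rw [mul_assoc, ← h1]
        _ = z⁻¹ * k * z := inv_mul_cancel_left _ _
    rw [e]; exact h.hz k hk
  · rw [map_mul, map_mul, hc, hd, mul_one, mul_one]; exact h.rel

theorem Env.x4 (h : Env σ K x y z t) : x ^ 4 = 1 := by
  apply h.hK _ (pow_mem h.hx 4)
  rw [map_pow]; exact H9.HN.Up.x4 h.rel

/-- first normalisation: the element `t` -/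
theorem Env.fix_t (h : Env σ K x y z t) : ∃ d, σ d = 1 ∧ (t * d) ^ 5 = 1 ∧ x⁻¹ * (t * d) * x * (t * d) ^ 2 = 1 := by
  set u := x⁻¹ * t * x * t ^ 2 with hu
  set τ := t ^ 5 with hτ
  have σu : σ u = 1 := by
    rw [hu]; simp only [map_mul, map_pow, map_inv]; exact h.rel.r12
  have στ : σ τ = 1 := by
    rw [hτ, map_pow]; exact h.rel.r11
  have cu : ∀ g, Commute u g := h.hc u σu
  have cτ : ∀ g, Commute τ g := h.hc τ στ
  have x4 := h.x4
  -- conjugation by `x`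
  let β : Γ →* Γ := (MulAut.conj x⁻¹).toMonoidHom
  have hβ : ∀ g, β g = x⁻¹ * g * x := fun g => by
    show x⁻¹ * g * (x⁻¹)⁻¹ = _
    rw [inv_inv]
  have βu : β u = u := by
    rw [hβ, mul_assoc, (cu x).eq, inv_mul_cancel_left]
  have b1 : β t = u * (t ^ 2)⁻¹ := by
    rw [hβ, hu]; group
  have b2 : β (β t) = u⁻¹ * t ^ 4 := by
    have e1 : (u * (t ^ 2)⁻¹) ^ 2 = u ^ 2 * (t ^ 4)⁻¹ := by
      rw [((cu _)).mul_pow, inv_pow, ← pow_mul]
    rw [b1, map_mul, βu, map_inv, map_pow, b1, e1, mul_inv_rev, inv_inv, ← mul_assoc, (cu (t ^ 4)).eq, mul_assoc]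
    have e3 : u * (u ^ 2)⁻¹ = u⁻¹ := by group
    rw [e3]
    exact ((cu _).inv_left).eq.symm
  have b4 : β (β (β (β t))) = (u⁻¹) ^ 5 * t ^ 16 := by
    have βui : β u⁻¹ = u⁻¹ := by rw [map_inv, βu]
    have e1 : (u⁻¹ * t ^ 4) ^ 4 = (u⁻¹) ^ 4 * t ^ 16 := by
      rw [((cu _).inv_left).mul_pow, ← pow_mul]
    rw [b2, map_mul, map_mul, βui, βui, map_pow, map_pow, b2, e1, ← mul_assoc, ← pow_succ']
  have b4' : β (β (β (β t))) = t := by
    have : β (β (β (β t))) = (x ^ 4)⁻¹ * t * x ^ 4 := by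
      rw [hβ, hβ, hβ, hβ]
      simp only [pow_succ, pow_zero, one_mul, mul_inv_rev, mul_assoc]
    rw [this, x4]; group
  have key : τ ^ 3 = u ^ 5 := by
    have e1 : (u⁻¹) ^ 5 * t ^ 16 = t := by rw [← b4, b4']
    have e2 : (u⁻¹) ^ 5 * t ^ 15 = 1 := by
      have : (u⁻¹) ^ 5 * t ^ 15 * t = 1 * t := by
        rw [mul_assoc, ← pow_succ, one_mul]; exact e1
      exact mul_right_cancel this
    rw [inv_pow] at e2
    rw [hτ, ← pow_mul]
    exact (inv_mul_eq_one.1 e2).symm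
  refine ⟨(u⁻¹) ^ 2 * τ, by rw [map_mul, map_pow, map_inv, σu, στ]; simp, ?_, ?_⟩
  · have cd : Commute t ((u⁻¹) ^ 2 * τ) := (((cu t).inv_left.pow_left 2).mul_left (cτ t)).symm
    rw [cd.mul_pow, ((cu τ).inv_left.pow_left 2).mul_pow, ← hτ, ← pow_mul]
    have e : τ * ((u⁻¹) ^ (2 * 5) * τ ^ 5) = (u ^ 5)⁻¹ * (u ^ 5)⁻¹ * (τ ^ 3 * τ ^ 3) := by
      have c1 : Commute τ ((u⁻¹) ^ (2 * 5)) := ((cu τ).inv_left.pow_left 10).symm
      rw [← mul_assoc, c1.eq, mul_assoc, ← pow_succ']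
      have e2 : (u⁻¹) ^ (2 * 5) = (u ^ 5)⁻¹ * (u ^ 5)⁻¹ := by group
      rw [e2, ← pow_add]
    rw [e, key]; group
  · have cd : ∀ g, Commute ((u⁻¹) ^ 2 * τ) g := fun g => ((cu g).inv_left.pow_left 2).mul_left (cτ g)
    have e1 : x⁻¹ * (t * ((u⁻¹) ^ 2 * τ)) * x * (t * ((u⁻¹) ^ 2 * τ)) ^ 2 = (x⁻¹ * t * x * t ^ 2) * ((u⁻¹) ^ 2 * τ) ^ 3 := by
      rw [((cd t).symm).mul_pow]
      calc x⁻¹ * (t * ((u⁻¹) ^ 2 * τ)) * x * (t ^ 2 * ((u⁻¹) ^ 2 * τ) ^ 2)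
          = x⁻¹ * t * (((u⁻¹) ^ 2 * τ) * (x * t ^ 2)) * ((u⁻¹) ^ 2 * τ) ^ 2 := by simp only [mul_assoc]
        _ = x⁻¹ * t * ((x * t ^ 2) * ((u⁻¹) ^ 2 * τ)) * ((u⁻¹) ^ 2 * τ) ^ 2 := by rw [(cd (x * t ^ 2)).eq]
        _ = (x⁻¹ * t * x * t ^ 2) * ((u⁻¹) ^ 2 * τ) ^ 3 := by rw [pow_succ' _ 2]; simp only [mul_assoc]
    rw [e1, ← hu, ((cu τ).inv_left.pow_left 2).mul_pow, key, ← pow_mul]
    group

theorem Env.ty (h : Env σ K x y z t) (t5 : t ^ 5 = 1) : t⁻¹ * y⁻¹ * t * y = 1 := by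
  set e := t⁻¹ * y⁻¹ * t * y with he
  have σe : σ e = 1 := by
    rw [he]; simp only [map_mul, map_inv]; exact h.rel.r13
  have ce : ∀ g, Commute e g := h.hc e σe
  have y6 : y ^ 6 = 1 := by
    apply h.hK _ (pow_mem h.hy 6)
    rw [map_pow]; exact h.rel.r1
  let β : Γ →* Γ := (MulAut.conj y⁻¹).toMonoidHom
  have hβ : ∀ g, β g = y⁻¹ * g * y := fun g => by
    show y⁻¹ * g * (y⁻¹)⁻¹ = _
    rw [inv_inv]
  have βe : β e = e := by rw [hβ, mul_assoc, (ce y).eq, inv_mul_cancel_left]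
  have b1 : β t = t * e := by rw [hβ, he]; group
  have b6 : β (β (β (β (β (β t))))) = t * e ^ 6 := by
    simp only [b1, map_mul, βe]
    simp only [pow_succ, pow_zero, one_mul, mul_assoc]
  have b6' : β (β (β (β (β (β t))))) = t := by
    have : β (β (β (β (β (β t))))) = (y ^ 6)⁻¹ * t * y ^ 6 := by
      simp only [hβ]
      simp only [pow_succ, pow_zero, one_mul, mul_inv_rev, mul_assoc]
    rw [this, y6]; group
  have e6 : e ^ 6 = 1 := by
    rw [b6'] at b6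
    exact (mul_eq_left.1 b6.symm)
  have e5 : e ^ 5 = 1 := by
    have h1 : β (t ^ 5) = 1 := by rw [t5, map_one]
    rw [map_pow, b1, ((ce t).symm).mul_pow, t5, one_mul] at h1
    exact h1
  have : e ^ 6 = e ^ 5 * e := pow_succ e 5
  rw [e6, e5, one_mul] at this
  exact this.symm

/-- `x²` inverts `t` -/
theorem Env.inv_t (h : Env σ K x y z t) (t5 : t ^ 5 = 1) (r12 : x⁻¹ * t * x * t ^ 2 = 1) :
    (x * x)⁻¹ * t * (x * x) = t⁻¹ := by
  have b1 : x⁻¹ * t * x = (t ^ 2)⁻¹ := eq_inv_of_mul_eq_one_left r12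
  have b2 : (x * x)⁻¹ * t * (x * x) = x⁻¹ * (x⁻¹ * t * x) * x := by group
  have b3 : x⁻¹ * (t ^ 2)⁻¹ * x = ((x⁻¹ * t * x) ^ 2)⁻¹ := by
    simp only [pow_two, mul_inv_rev, inv_inv, mul_assoc, mul_inv_cancel_left]
  rw [b2, b1, b3, b1]
  have e : (((t ^ 2)⁻¹) ^ 2)⁻¹ = t ^ 5 * t⁻¹ := by group
  rw [e, t5, one_mul]

/-- second normalisation: the element `z` -/
theorem Env.fix_z (h : Env σ K x y z t) (t5 : t ^ 5 = 1) (r12 : x⁻¹ * t * x * t ^ 2 = 1) :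
    ∃ c, σ c = 1 ∧ (z * c) ^ 2 = 1 ∧ ((z * c) * t) ^ 3 = 1 := by
  set ζ := z ^ 2 with hζ
  set δ := (z * t) ^ 3 with hδ
  have σζ : σ ζ = 1 := by rw [hζ, map_pow]; exact h.rel.r7
  have σδ : σ δ = 1 := by rw [hδ, map_pow, map_mul]; exact h.rel.r14
  have cζ : ∀ g, Commute ζ g := h.hc ζ σζ
  have cδ : ∀ g, Commute δ g := h.hc δ σδ
  set s := x * x with hs
  have hsK : s ∈ K := mul_mem h.hx h.hx
  have zs : z⁻¹ * s * z = s := by
    have h1 : z⁻¹ * s * z * s⁻¹ ∈ K := mul_mem (h.hz s hsK) (inv_mem hsK)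
    have h2 : z⁻¹ * s * z * s⁻¹ = 1 := by
      apply h.hK _ h1
      have r8 : (σ z * σ x) * (σ z * σ x) = 1 := by have := h.rel.r8; rwa [pow_two] at this
      have r7 := zz h.rel
      have zi' := zi h.rel
      have x4' := H9.HN.Up.x4 h.rel
      rw [hs]
      simp only [map_mul, map_inv]
      rw [zi']
      have e1 : σ z * σ x * σ z = (σ x)⁻¹ := by
        apply eq_inv_of_mul_eq_one_left
        rw [← r8]; simp only [mul_assoc]
      have e2 : σ z * (σ x * σ x) * σ z = (σ z * σ x * σ z) * (σ z * σ x * σ z) := by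
        calc σ z * (σ x * σ x) * σ z = σ z * σ x * 1 * σ x * σ z := by rw [mul_one]; simp only [mul_assoc]
          _ = (σ z * σ x * σ z) * (σ z * σ x * σ z) := by rw [← r7]; simp only [mul_assoc]
      rw [e2, e1]
      have e3 : (σ x)⁻¹ * (σ x)⁻¹ * (σ x * σ x)⁻¹ = (σ x ^ 4)⁻¹ := by group
      rw [e3, x4', inv_one]
    exact mul_inv_eq_one.1 h2
  have szs : s⁻¹ * z * s = z := by
    have h1 : s * z = z * s := by
      calc s * z = z * (z⁻¹ * s * z) := by group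
        _ = z * s := by rw [zs]
    rw [mul_assoc, ← h1, inv_mul_cancel_left]
  have sts : s⁻¹ * t * s = t⁻¹ := h.inv_t t5 r12
  have d1 : (z * t⁻¹) ^ 3 = δ := by
    have e1 : s⁻¹ * δ * s = δ := by rw [mul_assoc, (cδ s).eq, inv_mul_cancel_left]
    have e2 : s⁻¹ * δ * s = ((s⁻¹ * z * s) * (s⁻¹ * t * s)) ^ 3 := by
      rw [hδ]; simp only [pow_succ, pow_zero, one_mul, mul_assoc, mul_inv_cancel_left]
    rw [e1, szs, sts] at e2
    exact e2.symm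
  have d2 : (t⁻¹ * z) ^ 3 = δ := by
    have e1 : z⁻¹ * δ * z = δ := by rw [mul_assoc, (cδ z).eq, inv_mul_cancel_left]
    rw [← e1, ← d1]
    simp only [pow_succ, pow_zero, one_mul, mul_assoc, inv_mul_cancel_left]
  have d3 : δ⁻¹ = δ * (ζ⁻¹) ^ 3 := by
    have e1 : δ⁻¹ = (t⁻¹ * z⁻¹) ^ 3 := by rw [hδ, ← inv_pow, mul_inv_rev]
    have e2 : z⁻¹ = z * ζ⁻¹ := by rw [hζ]; group
    rw [e1, e2, ← mul_assoc, (((cζ (t⁻¹ * z)).inv_left).symm).mul_pow, d2]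
  have key : ζ ^ 3 = δ ^ 2 := by
    rw [inv_pow] at d3
    have : 1 = δ * δ * (ζ ^ 3)⁻¹ := by
      calc (1 : Γ) = δ * δ⁻¹ := (mul_inv_cancel δ).symm
        _ = δ * δ * (ζ ^ 3)⁻¹ := by rw [d3]; simp only [mul_assoc]
    rw [pow_two]
    exact (mul_inv_eq_one.1 this.symm).symm
  have cd : ∀ g, Commute (ζ * δ⁻¹) g := fun g => (cζ g).mul_left ((cδ g).inv_left)
  refine ⟨ζ * δ⁻¹, by rw [map_mul, map_inv, σζ, σδ]; simp, ?_, ?_⟩
  · rw [((cd z).symm).mul_pow, ← hζ, ((cζ δ⁻¹)).mul_pow, ← mul_assoc, ← pow_succ', key, inv_pow, mul_inv_cancel]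
  · have e1 : (z * (ζ * δ⁻¹)) * t = (z * t) * (ζ * δ⁻¹) := by
      rw [mul_assoc, (cd t).eq, ← mul_assoc]
    rw [e1, ((cd (z * t)).symm).mul_pow, ← hδ, ((cζ δ⁻¹)).mul_pow, key, ← mul_assoc]
    have e2 : δ * δ ^ 2 * (δ⁻¹) ^ 3 = 1 := by group
    exact e2

/-- all relations lift -/
theorem Env.rels (h : Env σ K x y z t) (t5 : t ^ 5 = 1) (r12 : x⁻¹ * t * x * t ^ 2 = 1)
    (z2 : z ^ 2 = 1) (zt : (z * t) ^ 3 = 1) : Rels x y z t := by
  have hx := h.hx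
  have hy := h.hy
  have hxi := inv_mem hx
  have hyi := inv_mem hy
  have zi' : z⁻¹ = z := by
    rw [pow_two] at z2; exact inv_eq_of_mul_eq_one_left z2
  have hz' : ∀ k ∈ K, z * k * z ∈ K := by
    intro k hk
    have := h.hz k hk
    rwa [zi'] at this
  refine ⟨?_, ?_, ?_, ?_, ?_, ?_, z2, ?_, ?_, ?_, t5, r12, h.ty t5, zt⟩
  · apply h.hK _ (pow_mem hy 6)
    rw [map_pow]; exact h.rel.r1
  · apply h.hK _ (mul_mem (mul_mem (mul_mem (pow_mem hx 2) hy) (pow_mem hx 2)) hyi)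
    simp only [map_mul, map_pow, map_inv]; exact h.rel.r2
  · apply h.hK _ (pow_mem (mul_mem (mul_mem (mul_mem hxi hyi) hx) hy) 3)
    simp only [map_mul, map_pow, map_inv]; exact h.rel.r3
  · apply h.hK _ (pow_mem (mul_mem (mul_mem (mul_mem hxi (pow_mem hy 2)) hx) (pow_mem hy 3)) 3)
    simp only [map_mul, map_pow, map_inv]; exact h.rel.r4
  · apply h.hK _ (pow_mem (mul_mem hx hy) 8)
    simp only [map_mul, map_pow, map_inv]; exact h.rel.r5
  · apply h.hK _ (pow_mem (mul_mem (mul_mem (mul_mem hx hy) hx) (pow_mem hy 3)) 4)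
    simp only [map_mul, map_pow, map_inv]; exact h.rel.r6
  · have e : (z * x) ^ 2 = (z * x * z) * x := by rw [pow_two]; simp only [mul_assoc]
    rw [e]
    apply h.hK _ (mul_mem (hz' x hx) hx)
    rw [← e]
    simp only [map_mul, map_pow, map_inv]; exact h.rel.r8
  · set w := y * x * y * x * (y ^ 2) * x * (y⁻¹) with hw
    have hwK : w ∈ K := mul_mem (mul_mem (mul_mem (mul_mem (mul_mem (mul_mem hy hx) hy) hx) (pow_mem hy 2)) hx) hyi
    have hm : (z⁻¹ * w⁻¹ * z * w) * (x ^ 2)⁻¹ ∈ K :=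
      mul_mem (mul_mem (h.hz _ (inv_mem hwK)) hwK) (inv_mem (pow_mem hx 2))
    apply h.hK _ hm
    rw [hw]
    simp only [map_mul, map_pow, map_inv]; exact h.rel.r9
  · set v := (y ^ 3) * x * y * x * y with hv
    have hvK : v ∈ K := mul_mem (mul_mem (mul_mem (mul_mem (pow_mem hy 3) hx) hy) hx) hy
    have hvi := inv_mem hvK
    have e : z * ((v⁻¹ * z * v * x) ^ 3) = (z * v⁻¹ * z) * (v * x * v⁻¹) * (z * (v * x * v⁻¹) * z) * (v * x) := by
      simp only [pow_succ, pow_zero, one_mul, mul_assoc]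
    have hm : (z * v⁻¹ * z) * (v * x * v⁻¹) * (z * (v * x * v⁻¹) * z) * (v * x) ∈ K :=
      mul_mem (mul_mem (mul_mem (hz' _ hvi) (mul_mem (mul_mem hvK hx) hvi)) (hz' _ (mul_mem (mul_mem hvK hx) hvi)))
        (mul_mem hvK hx)
    rw [e]
    apply h.hK _ hm
    rw [← e, hv]
    simp only [map_mul, map_pow, map_inv]; exact h.rel.r10

/-- **the relations lift** -/
theorem Env.main (h : Env σ K x y z t) : ∃ x' y' z' t' : Γ, σ x' = σ x ∧ σ y' = σ y ∧ σ z' = σ z ∧ σ t' = σ t ∧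
    Rels x' y' z' t' := by
  obtain ⟨d, hd, t5, r12⟩ := h.fix_t
  have h1 : Env σ K x y (z * 1) (t * d) := h.change (map_one σ) hd
  rw [mul_one] at h1
  obtain ⟨c, hc, z2, zt⟩ := h1.fix_z t5 r12
  have h2 : Env σ K x y (z * c) ((t * d) * 1) := h1.change hc (map_one σ)
  rw [mul_one] at h2
  exact ⟨x, y, z * c, t * d, rfl, rfl, by rw [map_mul, hc, mul_one], by rw [map_mul, hd, mul_one], h2.rels t5 r12 z2 zt⟩

end lift

end H9.HN.Mult
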