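import Mathlib
import Cfsg.Agent.Lib.H2.HN.Abs
import Cfsg.Agent.Lib.H2.HN.KSub

/-!
# Perfect subgroups with trivial multiplier in central extensions
-/

set_option autoImplicit false
set_option linter.all false

namespace H9.HN.Mult

open Subgroup
open scoped commutatorElement

theorem comm_central {Γ : Type} [Group Γ] {k1 k2 c1 c2 : Γ} (h1 : ∀ g, Commute c1 g) (h2 : ∀ g, Commute c2 g) :
    ⁅k1 * c1, k2 * c2⁆ = ⁅k1, k2⁆ := by
  rw [commutatorElement_def, commutatorElement_def]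
  have e1 : (k1 * c1) * (k2 * c2) = (k1 * k2) * (c1 * c2) := by
    calc (k1 * c1) * (k2 * c2) = k1 * (c1 * k2) * c2 := by simp only [mul_assoc]
      _ = (k1 * k2) * (c1 * c2) := by rw [(h1 k2).eq]; simp only [mul_assoc]
  have e2 : (k2 * c2) * (k1 * c1) = (k2 * k1) * (c1 * c2) := by
    calc (k2 * c2) * (k1 * c1) = k2 * (c2 * k1) * c1 := by simp only [mul_assoc]
      _ = (k2 * k1) * (c2 * c1) := by rw [(h2 k1).eq]; simp only [mul_assoc]
      _ = (k2 * k1) * (c1 * c2) := by rw [(h2 c1).eq]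
  calc (k1 * c1) * (k2 * c2) * (k1 * c1)⁻¹ * (k2 * c2)⁻¹ = ((k1 * c1) * (k2 * c2)) * ((k2 * c2) * (k1 * c1))⁻¹ := by
        rw [mul_inv_rev (k2 * c2)]; simp only [mul_assoc]
    _ = k1 * k2 * k1⁻¹ * k2⁻¹ := by rw [e1, e2]; group

/-- in a perfect group an element with central commutators is central -/
theorem central_of_comm {K : Type} [Group K] (hp : _root_.commutator K = ⊤) (d : K)
    (h : ∀ g : K, g * d * g⁻¹ * d⁻¹ ∈ center K) : d ∈ center K := by
  let θ : K →* center K := MonoidHom.mk' (fun g => ⟨g * d * g⁻¹ * d⁻¹, h g⟩) (by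
    intro a b
    apply Subtype.ext
    show a * b * d * (a * b)⁻¹ * d⁻¹ = (a * d * a⁻¹ * d⁻¹) * (b * d * b⁻¹ * d⁻¹)
    have hb := mem_center_iff.1 (h b)
    calc a * b * d * (a * b)⁻¹ * d⁻¹ = (a * (b * d * b⁻¹ * d⁻¹)) * (d * a⁻¹ * d⁻¹) := by group
      _ = ((b * d * b⁻¹ * d⁻¹) * a) * (d * a⁻¹ * d⁻¹) := by rw [hb a]
      _ = (b * d * b⁻¹ * d⁻¹) * (a * d * a⁻¹ * d⁻¹) := by simp only [mul_assoc]
      _ = (a * d * a⁻¹ * d⁻¹) * (b * d * b⁻¹ * d⁻¹) := (hb _).symm)
  rw [mem_center_iff]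
  intro g
  have h1 : g ∈ θ.ker := by
    have h2 : _root_.commutator K ≤ θ.ker := by
      rw [_root_.commutator_def, commutator_le]
      intro a _ b _
      rw [MonoidHom.mem_ker, map_commutatorElement, commutatorElement_eq_one_iff_mul_comm]
      exact Subtype.ext (mem_center_iff.1 (θ b).2 (θ a : K))
    rw [hp] at h2
    exact h2 (mem_top g)
  have h3 : g * d * g⁻¹ * d⁻¹ = 1 := congrArg Subtype.val (MonoidHom.mem_ker.1 h1)
  have h4 : g * d * g⁻¹ = d := mul_inv_eq_one.1 h3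
  exact mul_inv_eq_iff_eq_mul.1 h4

theorem superperfect {Γ G S : Type} [Group Γ] [Finite Γ] [Group G] [Group S]
    (hm : Cfsg.HasCyclicSchurMultiplier S 2) (σ : Γ →* G) (hs : Function.Surjective σ) (hc : σ.ker ≤ center Γ)
    (A : Subgroup G) (hA : ⁅A, A⁆ = A) (f : A →* S) (hf : Function.Surjective f)
    (hfc : f.ker ≤ center A) (hf2 : Nat.card f.ker = 2) :
    ∃ K : Subgroup Γ, K.map σ = A ∧ (∀ k ∈ K, σ k = 1 → k = 1) ∧
      (∀ g : Γ, (∀ a ∈ A, (σ g)⁻¹ * a * σ g ∈ A) → ∀ k ∈ K, g⁻¹ * k * g ∈ K) := by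
  set M : Subgroup Γ := A.comap σ with hM
  set K : Subgroup Γ := ⁅M, M⁆ with hK
  have h1 : K.map σ = A := by
    rw [hK, map_commutator, hM, map_comap_eq_self_of_surjective hs, hA]
  have hcc : ∀ u, σ u = 1 → ∀ g, Commute u g := fun u hu g => (mem_center_iff.1 (hc (MonoidHom.mem_ker.2 hu)) g).symm
  have h2 : ∀ m ∈ M, ∃ k ∈ K, ∃ c, σ c = 1 ∧ m = k * c := by
    intro m hm'
    have h3 : σ m ∈ K.map σ := by rw [h1]; exact hm'
    obtain ⟨k, hk, hkm⟩ := h3
    exact ⟨k, hk, k⁻¹ * m, by rw [map_mul, map_inv, hkm, inv_mul_cancel], (mul_inv_cancel_left k m).symm⟩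
  have hKM : K ≤ M := by
    intro k hk
    have : σ k ∈ K.map σ := mem_map_of_mem σ hk
    rw [h1] at this
    exact this
  have h3 : ⁅K, K⁆ = K := by
    apply le_antisymm
    · exact commutator_mono hKM hKM
    · conv_lhs => rw [hK]
      rw [commutator_le]
      intro m1 hm1 m2 hm2
      obtain ⟨k1, hk1, c1, hc1, rfl⟩ := h2 m1 hm1
      obtain ⟨k2, hk2, c2, hc2, rfl⟩ := h2 m2 hm2
      rw [comm_central (hcc c1 hc1) (hcc c2 hc2)]
      exact commutator_mem_commutator hk1 hk2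
  have hperf : _root_.commutator K = ⊤ := by
    have h4 : (_root_.commutator K).map K.subtype = (⊤ : Subgroup K).map K.subtype := by
      rw [_root_.commutator_def, map_commutator, ← MonoidHom.range_eq_map, range_subtype]
      exact h3
    exact map_injective (subtype_injective _) h4
  let r : K →* A := (σ.comp K.subtype).codRestrict A (fun k => hKM k.2)
  have hr : Function.Surjective r := by
    intro a
    have : (a : G) ∈ K.map σ := by rw [h1]; exact a.2
    obtain ⟨k, hk, hka⟩ := this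
    exact ⟨⟨k, hk⟩, Subtype.ext hka⟩
  let F : K →* S := f.comp r
  have hF : Function.Surjective F := hf.comp hr
  have hFc : F.ker ≤ center K := by
    intro d hd
    apply central_of_comm hperf
    intro g
    have h5 : r d ∈ center A := hfc (MonoidHom.mem_ker.2 (MonoidHom.mem_ker.1 hd))
    have h6 : r (g * d * g⁻¹ * d⁻¹) = 1 := by
      rw [map_mul, map_mul, map_mul, map_inv, map_inv, mem_center_iff.1 h5 (r g)]
      group
    have h7 : σ ((g * d * g⁻¹ * d⁻¹ : K) : Γ) = 1 := congrArg Subtype.val h6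
    rw [mem_center_iff]
    intro a
    exact Subtype.ext ((hcc _ h7 (a : Γ)).eq.symm)
  have hcard : Nat.card F.ker ≤ 2 := H2.HN.card_le_two_of_mult hm F hF hperf hFc
  let q : F.ker → f.ker := fun d => ⟨r d, MonoidHom.mem_ker.2 (MonoidHom.mem_ker.1 d.2)⟩
  have hq : Function.Surjective q := by
    intro a
    obtain ⟨k, hk⟩ := hr (a : A)
    exact ⟨⟨k, MonoidHom.mem_ker.2 (by show f (r k) = 1; rw [hk]; exact MonoidHom.mem_ker.1 a.2)⟩, Subtype.ext hk⟩
  have hfin : Finite f.ker := Nat.finite_of_card_ne_zero (by rw [hf2]; norm_num)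
  have hle : Nat.card f.ker ≤ Nat.card F.ker := Nat.card_le_card_of_surjective q hq
  have hbij : Function.Bijective q := (Nat.bijective_iff_surjective_and_card q).2 ⟨hq, by omega⟩
  refine ⟨K, h1, ?_, ?_⟩
  · intro k hk hσ
    have h8 : r ⟨k, hk⟩ = 1 := Subtype.ext hσ
    have h9 : q ⟨⟨k, hk⟩, MonoidHom.mem_ker.2 (by show f (r ⟨k, hk⟩) = 1; rw [h8, map_one])⟩ = q 1 :=
      Subtype.ext (by show r ⟨k, hk⟩ = r 1; rw [h8, map_one])
    have h10 := hbij.1 h9
    exact congrArg (fun w : F.ker => ((w : K) : Γ)) h10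
  · intro g hg k hk
    have h4 : M.map (MulAut.conj g⁻¹).toMonoidHom ≤ M := by
      rintro _ ⟨m, hm', rfl⟩
      show σ (g⁻¹ * m * (g⁻¹)⁻¹) ∈ A
      rw [inv_inv, map_mul, map_mul, map_inv]
      exact hg _ hm'
    have h5 : K.map (MulAut.conj g⁻¹).toMonoidHom ≤ K := by
      rw [hK, map_commutator]
      exact commutator_mono h4 h4
    have h6 : (MulAut.conj g⁻¹).toMonoidHom k ∈ K := h5 (mem_map_of_mem _ hk)
    have h7 : (MulAut.conj g⁻¹).toMonoidHom k = g⁻¹ * k * g := by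
      show g⁻¹ * k * (g⁻¹)⁻¹ = _
      rw [inv_inv]
    rwa [h7] at h6

end H9.HN.Mult
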