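import Mathlib
import Cfsg.Agent.Lib.H9.HN.HNMultA
import Cfsg.Agent.Lib.H9.HN.HNMultB
import Cfsg.Agent.Lib.H9.HN.HNFaith
import Cfsg.Agent.Lib.H40.StemFinish

/-!
# The Schur multiplier of the Harada-Norton group is trivial
-/

set_option autoImplicit false
set_option linter.all false
set_option maxRecDepth 20000

namespace H9.HN.Mult

open Cfsg.Spor H10.NHN
open H9.HN.Up (Rels)
open scoped commutatorElement

/-- the embedding of the abstract group -/
noncomputable abbrev ll : H2.HN.P →* HN := H2.HN.lift H2.HN.relHN.1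

theorem ll_inj : Function.Injective ll :=
  (H2.HN.main H2.HN.relHN.1 H9.HN.Faith.hx_ne NW H2.HN.closure_map).1

theorem ll_ne : ll (H2.HN.px ^ 2) ≠ 1 := by
  rw [map_pow, H2.HN.lift_x]
  exact H9.HN.Faith.hx_ne

/-- the double cover of HS in HN -/
noncomputable def A : Subgroup HN := H2.HN.K.map ll

theorem A_perf : ⁅A, A⁆ = A := by
  unfold A
  rw [← Subgroup.map_commutator, H2.HN.perfect_K H2.HN.relP H2.HN.closureP]

/-- isomorphism -/
noncomputable def eA : H2.HN.K ≃* A := H2.HN.K.equivMapOfInjective ll ll_inj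

/-- projection onto HS -/
noncomputable def fA : A →* H64.HSG.G := H2.HN.f.comp eA.symm.toMonoidHom

theorem fA_surj : Function.Surjective fA := H2.HN.f_surj.comp eA.symm.surjective

theorem mem_fA (a : A) : a ∈ fA.ker ↔ eA.symm a ∈ H2.HN.f.ker := Iff.rfl

theorem fA_central : fA.ker ≤ Subgroup.center A := by
  intro a ha
  have h1 := H2.HN.ker_f_central ((mem_fA a).1 ha)
  rw [Subgroup.mem_center_iff] at h1 ⊢
  intro g
  apply eA.symm.injective
  rw [map_mul, map_mul]
  exact h1 _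

theorem fA_card : Nat.card fA.ker = 2 := by
  have h1 := (H2.HN.card_K ll ll_ne).1
  rw [← h1]
  refine Nat.card_congr (Equiv.subtypeEquiv eA.symm.toEquiv fun a => ?_)
  exact mem_fA a

theorem x_mem : gP .x ∈ A := ⟨H2.HN.px, H2.HN.x_mem _ _ _, H2.HN.lift_x _⟩
theorem y_mem : gP .y ∈ A := ⟨H2.HN.py, H2.HN.y_mem _ _ _, H2.HN.lift_y _⟩

theorem z_norm : ∀ a ∈ A, (gP .z)⁻¹ * a * gP .z ∈ A := by
  rintro _ ⟨k, hk, rfl⟩
  have hn := H2.HN.normal_K H2.HN.relP H2.HN.closureP
  have h1 : H2.HN.pz⁻¹ * k * H2.HN.pz⁻¹⁻¹ ∈ H2.HN.K := hn.conj_mem k hk H2.HN.pz⁻¹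
  rw [inv_inv] at h1
  refine ⟨_, h1, ?_⟩
  rw [map_mul, map_mul, map_inv]
  have e : ll H2.HN.pz = gP .z := H2.HN.lift_z _
  rw [e]

theorem toHom_rel {Γ : Type} [Group Γ] {x y z t : Γ} (h : Rels x y z t) :
    ∀ r ∈ coxRelators HN.edges ∪ {r | r ∈ HN.extra},
      FreeGroup.lift (fun a : HN.Gen => match a with | .x => x | .y => y | .z => z | .t => t) r = 1 := by
  rintro r (⟨a, ha, _⟩ | hr)
  · simp [coxNodes, HN.edges] at ha
  · simp only [Set.mem_setOf_eq, HN.extra, List.mem_cons, List.mem_nil_iff, or_false] at hr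
    rcases hr with rfl | rfl | rfl | rfl | rfl | rfl | rfl | rfl | rfl | rfl | rfl | rfl | rfl | rfl <;>
      simp only [map_mul, map_pow, map_inv, FreeGroup.lift_apply_of]
    · exact h.r1
    · exact h.r2
    · exact h.r3
    · exact h.r4
    · exact h.r5
    · exact h.r6
    · exact h.r7
    · exact h.r8
    · exact h.r9
    · exact h.r10
    · exact h.r11
    · exact h.r12
    · exact h.r13
    · exact h.r14

/-- **stem extensions of the Harada-Norton group are trivial** -/
theorem stem_triv (Γ : Type) [Group Γ] [Finite Γ] (σ : Γ →* HN) (hσ : Cfsg.IsStemExtension σ) : ∀ c ∈ σ.ker, c = 1 := by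
  obtain ⟨hs, hc, hcm⟩ := hσ
  obtain ⟨K, hKm, hK1, hKn⟩ := superperfect H64.HSM.multG σ hs hc A A_perf fA fA_surj fA_central fA_card
  have hxK : gP .x ∈ K.map σ := by rw [hKm]; exact x_mem
  have hyK : gP .y ∈ K.map σ := by rw [hKm]; exact y_mem
  obtain ⟨x0, hx0, hxe⟩ := hxK
  obtain ⟨y0, hy0, hye⟩ := hyK
  obtain ⟨z1, hz1⟩ := hs (gP .z)
  obtain ⟨t1, ht1⟩ := hs (gP .t)
  have env : Env σ K x0 y0 z1 t1 := by
    refine ⟨?_, hK1, hx0, hy0, ?_, ?_⟩
    · intro u hu g
      exact (Subgroup.mem_center_iff.1 (hc (MonoidHom.mem_ker.2 hu)) g).symm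
    · apply hKn
      rw [hz1]; exact z_norm
    · rw [hxe, hye, hz1, ht1]; exact H9.HN.Idx.rels
  obtain ⟨x', y', z', t', ex, ey, ez, et, hrel⟩ := env.main
  let s : HN →* Γ := PresentedGroup.toGroup (toHom_rel hrel)
  have hss : ∀ g, σ (s g) = g := by
    have h1 : σ.comp s = MonoidHom.id HN := by
      apply PresentedGroup.ext
      intro a
      rw [MonoidHom.comp_apply, MonoidHom.id_apply]
      have e1 : s (PresentedGroup.of a) = (fun a : HN.Gen => match a with | .x => x' | .y => y' | .z => z' | .t => t') a :=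
        PresentedGroup.toGroup.of _
      rw [e1]
      cases a
      · exact ex.trans hxe
      · exact ey.trans hye
      · exact ez.trans hz1
      · exact et.trans ht1
    intro g
    exact DFunLike.congr_fun h1 g
  have hcomm : _root_.commutator Γ ≤ s.range := by
    rw [_root_.commutator_def, Subgroup.commutator_le]
    intro a _ b _
    have key : ∀ g : Γ, ∃ c, (∀ h, Commute c h) ∧ g = s (σ g) * c := by
      intro g
      refine ⟨(s (σ g))⁻¹ * g, ?_, (mul_inv_cancel_left _ _).symm⟩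
      have : σ ((s (σ g))⁻¹ * g) = 1 := by rw [map_mul, map_inv, hss, inv_mul_cancel]
      intro h
      exact env.hc _ this h
    obtain ⟨c1, hc1, e1⟩ := key a
    obtain ⟨c2, hc2, e2⟩ := key b
    rw [e1, e2, comm_central hc1 hc2]
    exact ⟨⁅σ a, σ b⁆, by rw [map_commutatorElement]⟩
  intro c hcK
  obtain ⟨g, rfl⟩ := hcomm (hcm hcK)
  have h1 : σ (s g) = 1 := MonoidHom.mem_ker.1 hcK
  rw [hss] at h1
  rw [h1, map_one]

theorem multHN : Cfsg.HasCyclicSchurMultiplier HN 1 := by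
  have := H9.HN.Faith.fin
  exact H40.StemFinish.hasCyclic_one_of_ker stem_triv

end H9.HN.Mult
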